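import Mathlib
import Cfsg.Agent.Lib.Block.Bridge
import Cfsg.Agent.Lib.Block.Reg
import Cfsg.Agent.Lib.Char.More
import Cfsg.Agent.Lib.Char.Integral
import Cfsg.Agent.Lib.M24Geom.Bridge

/-!
Criteria for a group to have a single `p`-block; lower bounds for the norm of a character of
defect zero on the elements of a given prime order.
-/

set_option autoImplicit false
set_option linter.style.haveILetI false

namespace H88

open Cfsg
open scoped ComplexConjugate

section single

variable {p : ℕ} [hp : Fact p.Prime] {M : Ideal AlgInt} {G : Type*} [Group G] [Finite G]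

theorem sameBlock_of_data (hM : IsPModular p M) (N : ℕ)
    (h0 : ∀ χ : IrrCharacter G,
      (charDegree (χ : G → ℂ)).factorization p ≠ (Nat.card G).factorization p)
    (h1 : ∀ z : G, orderOf z = p → ∃ E : Subgroup G, IsPGroup p E ∧ N ≤ Nat.card E ∧
      E ≤ Subgroup.centralizer {z} ∧ Subgroup.centralizer {z} ≤ Subgroup.normalizer (E : Set G))
    (h2 : ∀ g : G, g ≠ 1 → ¬ p ∣ orderOf g →
      p ^ (Nat.card (Subgroup.centralizer ({g} : Set G))).factorization p < N)
    (χ ψ : IrrCharacter G) : SameBlock M (χ : G → ℂ) (ψ : G → ℂ) := by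
  classical
  haveI := H33.isMaximal_of hM
  have key : ∀ B : Set (IrrCharacter G), IsPBlock M B → N ≤ p ^ blockDefect p B := by
    intro B hB
    obtain ⟨D, hD⟩ := H33.exists_defectGroup p hB
    obtain ⟨ξ, hξ⟩ := H84.block_nonempty hB
    have hD1 : D ≠ ⊥ := fun h => h0 ξ ((H33.blockDefect_eq_zero_iff hM hB hξ).1
      ((H33.blockDefect_eq_zero_iff_bot hM hB hD).2 h))
    have hDp := H33.defect_isPGroup hD
    haveI : Nontrivial D := (Subgroup.nontrivial_iff_ne_bot D).2 hD1
    obtain ⟨k, hk0, hk⟩ := hDp.nontrivial_iff_card.1 inferInstance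
    obtain ⟨z, hz⟩ := exists_prime_orderOf_dvd_card' (G := D) p (hk ▸ dvd_pow_self p hk0.ne')
    rw [← Subgroup.orderOf_coe] at hz
    obtain ⟨E, hE, hEN, hE1, hE2⟩ := h1 z hz
    have hle : Subgroup.zpowers (z : G) ≤ D := (Subgroup.zpowers_le).2 z.2
    have hc : Subgroup.centralizer ((Subgroup.zpowers (z : G) : Subgroup G) : Set G) =
        Subgroup.centralizer {(z : G)} := by
      rw [Subgroup.zpowers_eq_closure, Subgroup.centralizer_closure]
    obtain ⟨b, hb⟩ := (H33.exists_induced_iff_br hM (H := Subgroup.centralizer {(z : G)})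
      (hDp.to_le hle) ((Subgroup.zpowers_le).2 (Subgroup.mem_centralizer_singleton_iff.2 rfl))
      hc.le (hc ▸ Subgroup.centralizer_le_normalizer _) hB).2
      (H33.br_ne_zero_of_le hle (H33.defect_br_ne_zero hD))
    obtain ⟨D', hD'⟩ := H33.exists_defectGroup p hb.1
    haveI : (E.subgroupOf (Subgroup.centralizer {(z : G)})).Normal :=
      Subgroup.normal_subgroupOf_of_le_normalizer hE2
    have h3 := H33.normal_le_defect hM hb.1 hD' (P := E.subgroupOf (Subgroup.centralizer {(z : G)}))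
      hE.comap_subtype
    have h4 := Subgroup.card_le_of_le h3
    rw [Nat.card_congr (Subgroup.subgroupOfEquivOfLe hE1).toEquiv, H33.defect_card hM hb.1 hD'] at h4
    exact hEN.trans (h4.trans (Nat.pow_le_pow_right hp.out.pos
      (H33.blockDefect_le_of_induced hM hb)))
  have h5 := H33.card_blocks_le (M := M) (fun B : Set (IrrCharacter G) => IsPBlock M B)
    (fun K => K = ConjClasses.mk 1) (fun B h => h) (by
      intro B B' hB hB' ξ hξ g hg1 hg2
      by_contra hne
      have := h2 g (fun e => hne (e ▸ rfl))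
        (H33.not_dvd_orderOf_of_coeff_ne_zero hM (H33.fB_mem_OG hB) hg1)
      exact absurd ((key B' hB').trans (Nat.pow_le_pow_right hp.out.pos
        (H33.blockDefect_le_of_centralChar hM hB' hξ hg2))) (not_le.2 this))
  rw [Nat.card_unique (α := {C : ConjClasses G // C = ConjClasses.mk 1})] at h5
  haveI := Finite.card_le_one_iff_subsingleton.1 h5
  have : (⟨blockOf M χ.1, H84.isPBlock_blockOf χ⟩ : {B : Set (IrrCharacter G) // IsPBlock M B}) =
    ⟨blockOf M ψ.1, H84.isPBlock_blockOf ψ⟩ := Subsingleton.elim _ _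
  exact H84.blockOf_eq_iff.1 (congrArg Subtype.val this)

end single

section bounds

variable {G : Type*} [Group G] [Fintype G]

theorem int_sum_sq_bound {ι : Type*} [Fintype ι] (n : ι → ℤ) (a : ℤ) :
    (∑ i, n i) ^ 2 + (∑ i, n i - Fintype.card ι * a) * (Fintype.card ι -
      (∑ i, n i - Fintype.card ι * a)) ≤ Fintype.card ι * ∑ i, n i ^ 2 := by
  have h : ∑ i, ((2 * a + 1) * n i - a * (a + 1)) ≤ ∑ i, n i ^ 2 :=
    Finset.sum_le_sum fun i _ => by
      have : 0 ≤ (n i - a) * (n i - a - 1) := by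
        rcases le_or_gt (n i) a with h | h
        · exact mul_nonneg_of_nonpos_of_nonpos (by omega) (by omega)
        · exact mul_nonneg (by omega) (by omega)
      nlinarith
  rw [Finset.sum_sub_distrib, ← Finset.mul_sum, Finset.sum_const, Finset.card_univ,
    nsmul_eq_mul] at h
  have hq : (0 : ℤ) ≤ Fintype.card ι := Nat.cast_nonneg _
  nlinarith [mul_le_mul_of_nonneg_left h hq]

/-- The restriction to an abelian subgroup `C` of a character vanishing on `C P#`. -/
theorem sum_normSq_ge_of_vanish {χ : G → ℂ} (hχ : IsCharacter G χ) (C P : Subgroup G) [Fintype C]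
    (hC : ∀ a b : C, a * b = b * a) (hCP : ∀ (c : C) (u : P), Commute (c : G) u)
    (hv : ∀ (c : C) (u : P), u ≠ 1 → χ (c * u) = 0) {d : ℕ} (hd : χ 1 = (d * Nat.card P : ℕ))
    (a : ℤ) :
    (((d * Nat.card P : ℕ) : ℝ)) ^ 2 + ((Nat.card P : ℤ) ^ 2 * ((d - Nat.card C * a) *
      (Nat.card C - (d - Nat.card C * a))) : ℤ) ≤ ∑ c : C, ‖χ c‖ ^ 2 := by
  classical
  haveI : Fintype P := Fintype.ofFinite _
  let f : C × P →* G := MonoidHom.noncommCoprod C.subtype P.subtype hCP
  have hres := H6.isCharacter_restrict C hχ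
  have hP0 : (Nat.card P : ℂ) ≠ 0 := H6.card_ne_zero
  have hm : ∀ lam : IrrCharacter C, ∃ n : ℕ, classInner (fun c : C => χ c) lam.1 = Nat.card P * n := by
    intro lam
    obtain ⟨n, hn⟩ := H6.char_inner_nat (H6.isCharacter_comp f hχ)
      (H6.isCharacter_prodMul (H6.irr_isCharacter lam.2) (H6.isCharacter_one (G := P)))
    refine ⟨n, ?_⟩
    rw [← hn, H6.classInner_def, H6.classInner_def, Fintype.sum_prod_type, Nat.card_prod]
    have : ∀ c : C, ∑ u : P, χ (f (c, u)) * conj (lam.1 c * 1) = χ c * conj (lam.1 c) := by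
      intro c
      rw [Finset.sum_eq_single 1]
      · have : f (c, 1) = c * (1 : P) := rfl
        rw [this, OneMemClass.coe_one, mul_one, mul_one]
      · intro u _ hu
        have : f (c, u) = c * u := rfl
        rw [this, hv c u hu, zero_mul]
      · simp
    simp only [this]
    push_cast
    field_simp
  choose n hn using hm
  have h1 := H6.classFun_apply_eq_sum_irr (H6.char_isClassFunction hres) 1
  simp only [hn, H6.irr_one_eq_one_of_comm hC (Subtype.property _), mul_one, OneMemClass.coe_one,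
    hd, ← Finset.mul_sum] at h1
  have h2 : ∑ lam, (n lam : ℤ) = d := by
    rw [Nat.cast_mul, mul_comm] at h1
    have := mul_left_cancel₀ hP0 h1
    exact_mod_cast this.symm
  have h3 := H6.parseval (H6.char_isClassFunction hres) (fun c : C => χ c)
  simp only [hn] at h3
  rw [H6.classInner_self_eq] at h3
  have h4 : (Nat.card C : ℝ)⁻¹ * ∑ c : C, ‖χ c‖ ^ 2 =
      (Nat.card P : ℝ) ^ 2 * ∑ lam, (n lam : ℝ) ^ 2 := by
    apply Complex.ofReal_injective
    rw [h3]
    push_cast
    rw [Finset.mul_sum]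
    refine Finset.sum_congr rfl fun lam _ => ?_
    simp only [map_mul, map_natCast]
    ring
  have hC0 : (Nat.card C : ℝ) ≠ 0 := Nat.cast_ne_zero.2 Nat.card_pos.ne'
  rw [inv_mul_eq_iff_eq_mul₀ hC0] at h4
  have h5 := int_sum_sq_bound (fun lam => (n lam : ℤ)) a
  have h6 : Fintype.card (IrrCharacter C) = Nat.card C := by
    rw [← Nat.card_eq_fintype_card, ← H6.card_hom_of_comm hC]
    exact (Nat.card_congr (Equiv.ofBijective _ (H6.irrOfHom_bijective_of_comm hC))).symm
  rw [h2, h6] at h5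
  have h7 : ((d : ℝ)) ^ 2 + (((d - Nat.card C * a) * (Nat.card C - (d - Nat.card C * a)) : ℤ) : ℝ) ≤
      Nat.card C * ∑ lam, (n lam : ℝ) ^ 2 := by exact_mod_cast h5
  rw [h4]
  have h8 := mul_le_mul_of_nonneg_left h7 (sq_nonneg (Nat.card P : ℝ))
  push_cast at h8 ⊢
  nlinarith

theorem sum_order_ge (f : G → ℝ) {q : ℕ} (hq : q.Prime) (L : ℝ)
    (h : ∀ x : G, orderOf x = q → f 1 + L ≤ ∑ k ∈ Finset.range q, f (x ^ k)) :
    (Finset.univ.filter fun x : G => orderOf x = q).card * L ≤
      (q - 1) * ∑ x ∈ Finset.univ.filter (fun x : G => orderOf x = q), f x := by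
  classical
  have h1 : ∀ x ∈ Finset.univ.filter (fun x : G => orderOf x = q),
      L ≤ ∑ k ∈ Finset.Ico 1 q, f (x ^ k) := by
    intro x hx
    have := h x (Finset.mem_filter.1 hx).2
    rw [Finset.range_eq_Ico, Finset.sum_eq_sum_Ico_succ_bot hq.pos, pow_zero] at this
    exact le_of_add_le_add_left this
  have h2 := Finset.sum_le_sum h1
  rw [Finset.sum_const, nsmul_eq_mul, Finset.sum_comm] at h2
  refine h2.trans (le_of_eq ?_)
  have h3 : ∀ k ∈ Finset.Ico 1 q, ∑ x ∈ Finset.univ.filter (fun x : G => orderOf x = q), f (x ^ k) =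
      ∑ x ∈ Finset.univ.filter (fun x : G => orderOf x = q), f x := by
    intro k hk
    rw [Finset.mem_Ico] at hk
    have hc : q.Coprime k := (Nat.coprime_of_lt_prime (by omega) hk.2 hq)
    have hmap : ∀ x ∈ Finset.univ.filter (fun x : G => orderOf x = q),
        x ^ k ∈ Finset.univ.filter (fun x : G => orderOf x = q) := by
      intro x hx
      have hx' := (Finset.mem_filter.1 hx).2
      refine Finset.mem_filter.2 ⟨Finset.mem_univ _, ?_⟩
      rw [Nat.Coprime.orderOf_pow (hx' ▸ hc), hx']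
    have hinj : Set.InjOn (fun x : G => x ^ k) (Finset.univ.filter (fun x : G => orderOf x = q)) := by
      intro x hx y hy e
      obtain ⟨m, -, hm⟩ := Nat.exists_mul_mod_eq_one_of_coprime hc.symm hq.one_lt
      have key : ∀ z : G, orderOf z = q → (z ^ k) ^ m = z := fun z hz => by
        rw [← pow_mul, ← pow_mod_orderOf, hz, hm, pow_one]
      have e' : x ^ k = y ^ k := e
      rw [← key x (Finset.mem_filter.1 hx).2, ← key y (Finset.mem_filter.1 hy).2, e']
    exact Finset.sum_bij (fun x _ => x ^ k) hmap (fun x hx y hy e => hinj hx hy e)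
      (fun y hy => by
        obtain ⟨x, hx, e⟩ := Finset.surj_on_of_inj_on_of_card_le (fun x _ => x ^ k) hmap
          (fun x y hx hy e => hinj hx hy e) le_rfl y hy
        exact ⟨x, hx, e.symm⟩) (fun _ _ => rfl)
  rw [Finset.sum_congr rfl h3, Finset.sum_const, nsmul_eq_mul, Nat.card_Ico,
    Nat.cast_sub hq.one_le, Nat.cast_one]

/-- Lower bound for the norm on the elements of prime order `q` of a character vanishing on the
`p`-singular elements. -/
theorem sum_order_ge_of_vanish {p q : ℕ} [hp : Fact p.Prime] (hq : q.Prime) (hpq : p ≠ q)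
    {χ : G → ℂ} (hχ : IsCharacter G χ) (hv : ∀ g, p ∣ orderOf g → χ g = 0) {j d N : ℕ}
    (hj : ∀ x : G, orderOf x = q → p ^ j ∣ Nat.card (Subgroup.centralizer ({x} : Set G)))
    (hd : χ 1 = (d * p ^ j : ℕ)) (hN : N ≤ (Finset.univ.filter fun x : G => orderOf x = q).card) :
    ((N * ((p ^ j) ^ 2 * (d % q * (q - d % q))) : ℕ) : ℝ) ≤
      (q - 1) * ∑ x ∈ Finset.univ.filter (fun x : G => orderOf x = q), ‖χ x‖ ^ 2 := by
  classical
  refine le_trans ?_ (sum_order_ge (fun x => ‖χ x‖ ^ 2) hq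
    (((p ^ j) ^ 2 * (d % q * (q - d % q)) : ℕ) : ℝ) fun x hx => ?_)
  · exact_mod_cast Nat.mul_le_mul_right _ hN
  obtain ⟨P', hP'⟩ := Sylow.exists_subgroup_card_pow_prime p (hj x hx)
  let P := P'.map (Subgroup.centralizer ({x} : Set G)).subtype
  have hP : Nat.card P = p ^ j := by
    rw [← hP']
    exact Subgroup.card_map_of_injective (Subgroup.subtype_injective _)
  have hcomm : ∀ (c : Subgroup.zpowers x) (u : P), Commute (c : G) u := by
    rintro ⟨_, k, rfl⟩ ⟨_, u, -, rfl⟩
    exact (show Commute x u from (Subgroup.mem_centralizer_singleton_iff.1 u.2).symm).zpow_left k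
  have h1 := sum_normSq_ge_of_vanish hχ (Subgroup.zpowers x) P (by
      rintro ⟨_, k, rfl⟩ ⟨_, l, rfl⟩
      exact Subtype.ext (zpow_mul_comm x k l)) hcomm
    (by
      intro c u hu
      apply hv
      have hc : orderOf (c : G) ∣ q := hx ▸ orderOf_dvd_of_mem_zpowers c.2
      have hu' : orderOf (u : G) ∣ p ^ j := hP ▸ Subgroup.orderOf_dvd_natCard P u.2
      rw [(hcomm c u).orderOf_mul_eq_mul_orderOf_of_coprime (Nat.Coprime.coprime_dvd_left hc
        (Nat.Coprime.coprime_dvd_right hu' (Nat.Coprime.pow_right j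
          ((Nat.coprime_primes hq hp.out).2 hpq.symm))))]
      obtain ⟨i, -, hi⟩ := (Nat.dvd_prime_pow hp.out).1 hu'
      refine Dvd.dvd.mul_left ?_ _
      rw [hi]
      refine dvd_pow_self p fun h0 => hu ?_
      rw [h0, pow_zero, orderOf_eq_one_iff] at hi
      exact Subtype.ext hi) (d := d) (by rw [hP]; exact hd) (d / q : ℕ)
  rw [Nat.card_zpowers, hx, hP] at h1
  have h2 : ∑ c : Subgroup.zpowers x, ‖χ c‖ ^ 2 = ∑ k ∈ Finset.range q, ‖χ (x ^ k)‖ ^ 2 := by
    rw [← (finEquivZPowers (isOfFinOrder_of_finite x)).sum_comp, ← hx,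
      ← Fin.sum_univ_eq_sum_range (fun k => ‖χ (x ^ k)‖ ^ 2)]
    rfl
  have h3 : (d : ℤ) - q * (d / q : ℕ) = (d % q : ℕ) := by
    have := Nat.mod_add_div d q
    omega
  rw [h2, h3] at h1
  rw [hd, Complex.norm_natCast]
  refine le_trans (le_of_eq ?_) h1
  rw [← Nat.cast_sub (Nat.mod_lt d hq.pos).le]
  norm_cast

theorem sum_orders_le {χ : G → ℂ} (hχ : IsIrrCharacter G χ) (Q : Finset ℕ) (hQ : 1 ∉ Q) :
    ‖χ 1‖ ^ 2 + ∑ q ∈ Q, ∑ x ∈ Finset.univ.filter (fun x : G => orderOf x = q), ‖χ x‖ ^ 2 ≤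
      Nat.card G := by
  classical
  have h1 := H6.classInner_self_re χ
  rw [H6.irr_inner_self hχ, Complex.one_re, eq_inv_mul_iff_mul_eq₀
    (Nat.cast_ne_zero.2 Nat.card_pos.ne'), mul_one] at h1
  have h2 : ‖χ 1‖ ^ 2 = ∑ x ∈ Finset.univ.filter (fun x : G => orderOf x = 1), ‖χ x‖ ^ 2 := by
    have : Finset.univ.filter (fun x : G => orderOf x = 1) = {1} := by
      ext x
      simp
    rw [this, Finset.sum_singleton]
  rw [h1, h2, ← Finset.sum_insert (f := fun q => ∑ x ∈ Finset.univ.filter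
    (fun x : G => orderOf x = q), ‖χ x‖ ^ 2) hQ, Finset.sum_fiberwise_eq_sum_filter]
  exact Finset.sum_le_sum_of_subset_of_nonneg (Finset.filter_subset _ _) fun _ _ _ => sq_nonneg _

theorem index_le_card_order (x : G) :
    (Subgroup.centralizer ({x} : Set G)).index ≤
      (Finset.univ.filter fun y : G => orderOf y = orderOf x).card := by
  classical
  rw [← H8.card_filter_isConj]
  refine Finset.card_le_card fun y hy => ?_
  obtain ⟨c, rfl⟩ := isConj_iff.1 (Finset.mem_filter.1 hy).2
  exact Finset.mem_filter.2 ⟨Finset.mem_univ _, (MulAut.conj c).orderOf_eq x⟩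

theorem index_add_le_card_order {x y : G} (h : ¬ IsConj x y) (ho : orderOf y = orderOf x) :
    (Subgroup.centralizer ({x} : Set G)).index + (Subgroup.centralizer ({y} : Set G)).index ≤
      (Finset.univ.filter fun z : G => orderOf z = orderOf x).card := by
  classical
  rw [← H8.card_filter_isConj, ← H8.card_filter_isConj, ← Finset.card_union_of_disjoint
    (Finset.disjoint_filter.2 fun z _ h1 h2 => h (h1.trans h2.symm))]
  refine Finset.card_le_card fun z hz => ?_
  refine Finset.mem_filter.2 ⟨Finset.mem_univ _, ?_⟩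
  rcases Finset.mem_union.1 hz with hz | hz
  · obtain ⟨c, rfl⟩ := isConj_iff.1 (Finset.mem_filter.1 hz).2
    exact (MulAut.conj c).orderOf_eq x
  · obtain ⟨c, rfl⟩ := isConj_iff.1 (Finset.mem_filter.1 hz).2
    exact ((MulAut.conj c).orderOf_eq y).trans ho

end bounds

section tables

open H96.Geo H15

variable {H : Subgroup (Equiv.Perm GolayPt)} {L : List Cl}

theorem card_centralizer_sub {Γ : Type*} [Group Γ] (H : Subgroup Γ) (x : H) :
    Nat.card (Subgroup.centralizer ({x} : Set H)) =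
      Nat.card ↥(H ⊓ Subgroup.centralizer {(x : Γ)}) := by
  have : Subgroup.centralizer ({x} : Set H) = (H ⊓ Subgroup.centralizer {(x : Γ)}).subgroupOf H := by
    ext y
    rw [Subgroup.mem_subgroupOf, Subgroup.mem_inf, Subgroup.mem_centralizer_singleton_iff,
      Subgroup.mem_centralizer_singleton_iff]
    exact ⟨fun h => ⟨y.2, congrArg Subtype.val h⟩, fun h => Subtype.ext h.2⟩
  rw [this]
  exact Nat.card_congr (Subgroup.subgroupOfEquivOfLe inf_le_left).toEquiv

theorem table_data (T : ClassTable H L) (x : H) : ∃ e ∈ L, orderOf x = e.o ∧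
    Nat.card (Subgroup.centralizer ({x} : Set H)) = e.z ∧
      ∃ k ∈ H, k * permOf e.c * k⁻¹ = x := by
  obtain ⟨e, he, h1, -, k, hk, h2⟩ := T.data x.2
  refine ⟨e, he, by rw [← h1, Subgroup.orderOf_coe], ?_, k, hk, h2⟩
  rw [card_centralizer_sub, ← h2, card_cent_conj hk, T.cent e he]

theorem table_index (T : ClassTable H L) {e : Cl} (he : e ∈ L) {m : ℕ} (hm : Nat.card H = m * e.z) :
    (Subgroup.centralizer ({⟨permOf e.c, (T.good e he).2⟩} : Set H)).index = m := by
  have h1 := (Subgroup.centralizer ({⟨permOf e.c, (T.good e he).2⟩} : Set H)).index_mul_card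
  have h2 : 0 < Nat.card (Subgroup.centralizer ({⟨permOf e.c, (T.good e he).2⟩} : Set H)) :=
    Nat.card_pos
  rw [card_centralizer_sub, T.cent e he] at h1 h2
  exact Nat.eq_of_mul_eq_mul_right h2 (h1.trans hm)

theorem table_count [Fintype H] (T : ClassTable H L) {e : Cl} (he : e ∈ L) {m : ℕ}
    (hm : Nat.card H = m * e.z) :
    m ≤ (Finset.univ.filter fun y : H => orderOf y = e.o).card := by
  have := index_le_card_order (⟨permOf e.c, (T.good e he).2⟩ : H)
  rwa [table_index T he hm, Subgroup.orderOf_mk, T.ord e he] at this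

theorem table_count2 [Fintype H] (T : ClassTable H L) {e e' : Cl} (he : e ∈ L) (he' : e' ∈ L)
    {m : ℕ} (hm : Nat.card H = m * e.z) (hz : e'.z = e.z) (ho : e'.o = e.o)
    (hne : ∀ h ∈ H, h * permOf e.c * h⁻¹ ≠ permOf e'.c) :
    m + m ≤ (Finset.univ.filter fun y : H => orderOf y = e.o).card := by
  have := index_add_le_card_order (x := (⟨permOf e.c, (T.good e he).2⟩ : H))
    (y := ⟨permOf e'.c, (T.good e' he').2⟩) (fun h => by
      obtain ⟨c, hc⟩ := isConj_iff.1 h
      exact hne c c.2 (congrArg Subtype.val hc))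
    (by rw [Subgroup.orderOf_mk, Subgroup.orderOf_mk, T.ord e he, T.ord e' he', ho])
  rwa [table_index T he hm, table_index T he' (hz ▸ hm), Subgroup.orderOf_mk, T.ord e he] at this

/-- A normal `2`-subgroup of an element centraliser from a chain. -/
theorem exists_normal_of_chain {c : ℕ} {chZ chE : H54.Chain}
    (hZ : H54.Good cfg24 pt chZ (H ⊓ Subgroup.centralizer {permOf c}) ∧
      H54.grp (Equiv.Perm GolayPt) cfg24 pt chZ.gens = H ⊓ Subgroup.centralizer {permOf c})
    (h1 : H54.checkLow cfg24 chE = true) (h2 : H54.checkUp cfg24 chE = true) {k : ℕ}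
    (h3 : chE.size cfg24.n = 2 ^ k) (h4 : ∀ s ∈ chE.gens, H54.memb cfg24 chZ s = true)
    (h5 : ∀ t ∈ chZ.gens, okP t = true)
    (h6 : ∀ t ∈ chZ.gens, ∀ s ∈ chE.gens, H54.memb cfg24 chE (H54.conjc cfg24 t s) = true)
    {z : H} {y : Equiv.Perm GolayPt} (hy : y ∈ H) (hz : y * permOf c * y⁻¹ = z) :
    ∃ E : Subgroup H, IsPGroup 2 E ∧ Nat.card E = 2 ^ k ∧ E ≤ Subgroup.centralizer {z} ∧
      Subgroup.centralizer {z} ≤ Subgroup.normalizer (E : Set H) := by
  have hS : ∀ s ∈ chE.gens, okP s = true := fun s hs => (good_of_memb hZ.1 (h4 s hs)).1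
  have gE := good_full hS h1 h2
  set E₀ := H54.grp (Equiv.Perm GolayPt) cfg24 pt chE.gens with hE₀
  have hle : E₀ ≤ H ⊓ Subgroup.centralizer {permOf c} :=
    (grp_le_iff hS).2 fun s hs => (good_of_memb hZ.1 (h4 s hs)).2
  have hcard : Nat.card E₀ = 2 ^ k := (gE.card X24 K24).trans h3
  have hnorm : H ⊓ Subgroup.centralizer {permOf c} ≤ Subgroup.normalizer (E₀ : Set _) := by
    rw [← hZ.2, grp_le_iff h5]
    intro t ht
    refine Subgroup.mem_normalizer_fintype ?_
    have : E₀ ≤ E₀.comap (MulAut.conj (permOf t)).toMonoidHom := by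
      conv_lhs => rw [hE₀]
      rw [grp_le_iff hS]
      intro s hs
      exact gE.mem_of_memb X24 (h6 t ht s hs)
        (H54.Rep.conj X24 (rep_permOf (h5 t ht)) (rep_permOf (hS s hs)))
    exact fun n hn => this hn
  let φ : H →* Equiv.Perm GolayPt := (MulAut.conj y⁻¹).toMonoidHom.comp H.subtype
  have hφ : ∀ x : H, φ x = y⁻¹ * x * y := fun x => by simp [φ]
  have hc : ∀ x : H, x ∈ Subgroup.centralizer ({z} : Set H) ↔
      φ x ∈ H ⊓ Subgroup.centralizer {permOf c} := by
    intro x
    rw [Subgroup.mem_inf, Subgroup.mem_centralizer_singleton_iff,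
      Subgroup.mem_centralizer_singleton_iff, hφ, Subtype.ext_iff, Subgroup.coe_mul,
      Subgroup.coe_mul, ← hz]
    constructor
    · intro h
      refine ⟨H.mul_mem (H.mul_mem (H.inv_mem hy) x.2) hy, ?_⟩
      calc y⁻¹ * x * y * permOf c = y⁻¹ * (x * (y * permOf c * y⁻¹)) * y := by group
        _ = _ := by rw [h]; group
    · intro h
      calc x * (y * permOf c * y⁻¹) = y * (y⁻¹ * x * y * permOf c) * y⁻¹ := by group
        _ = _ := by rw [h.2]; group
  have hcard' : Nat.card (E₀.comap φ) = 2 ^ k := by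
    rw [← hcard]
    refine Nat.card_congr (Equiv.ofBijective (φ.subgroupComap E₀) ⟨fun a b h => ?_, fun b => ?_⟩)
    · have : φ a = φ b := congrArg Subtype.val h
      rw [hφ, hφ] at this
      exact Subtype.ext (Subtype.ext (mul_left_cancel (mul_right_cancel this)))
    · have hb : φ ⟨y * b * y⁻¹, H.mul_mem (H.mul_mem hy (hle b.2).1) (H.inv_mem hy)⟩ = b := by
        rw [hφ]; group
      exact ⟨⟨_, by change φ _ ∈ E₀; rw [hb]; exact b.2⟩, Subtype.ext hb⟩
  refine ⟨E₀.comap φ, IsPGroup.of_card hcard', hcard', fun x hx => (hc x).2 (hle hx),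
    fun x hx => ?_⟩
  refine Subgroup.mem_normalizer_fintype fun n hn => ?_
  change φ (x * n * x⁻¹) ∈ E₀
  rw [map_mul, map_mul, map_inv]
  exact (Subgroup.mem_normalizer_iff.1 (hnorm ((hc x).1 hx)) _).1 hn

end tables

end H88
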